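import Cfsg.Agent.Lib.QS.Def
import Cfsg.Prelude.Def_Quasithin
import Cfsg.Agent.Lib.QS.NpT
import Cfsg.Agent.S2126
import Cfsg.Agent.S2128
import Cfsg.Agent.S2603

/-!
# QS/NpA (S1849): groups of Lie type that are never proper pumpups.
* `np_inn`: if every `σ` with `σ² = 1` is inner and no involution centralizer has a component (`fix_conj`; `Z(Y) = 1` makes the inducing
  element an involution).  `ChP 2 H` excludes components (`KI.chP_iff_layer`, `QE.chP_chev` in `QE/BigM.lean`).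
* `Sz`, `²F₄(q)`: `|Out|` odd (`S2126`, `S2128`).  Tits group: `|Out| = 2` and `Aut = ²F₄(2)` (`St.Over`, `Tits.L`, `Tits.TT`, `mem_TT_of_sq`); `U₃(3)`:
  `Aut = G₂(2)` (`St.G22`, `dG22`, `|Out| = 2` by `S2603`): an involution `s` of the overgroup `Γ` (`LieP 2 Γ`) has `C_Γ(s)` of characteristic 2
  (Borel-Tits, as `St.Over.isChP_centralizer`), a component of `C_Y(s) ⊴ C_Γ(s)` would be a component of `C_Γ(s)`.
  Other routes are welcome (orders: a fixed subgroup with a component is non-solvable).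
-/

set_option autoImplicit false

namespace Cfsg.Lib.QS

open Subgroup Cfsg.Lib.BG Cfsg.Lib.Comp
open scoped Cfsg.Lib.Transfer commutatorElement MatrixGroups

variable {Y : Type*} [Group Y] [Finite Y]

theorem np_inn (hZ : center Y = ⊥) (h : ∀ σ : MulAut Y, σ * σ = 1 → σ ∈ Inn Y)
    (k : ∀ x : Y, orderOf x = 2 → ∀ M, ¬ Cmp M 𝐂[x]) : NoPu Y :=
  haveI : (MonoidHom.id Y).range.Normal := ⟨fun _ _ _ => ⟨_, rfl⟩⟩
  np_ind (MonoidHom.id Y) Function.injective_id
    (eq_bot_iff.2 fun x hx => hZ.le (mem_center_iff.2 fun g => mem_cent.1 hx g ⟨g, rfl⟩))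
    (fun σ hσ => let ⟨s, hs⟩ := h σ hσ; ⟨s, fun y => by rw [← hs]; rfl⟩) k

theorem np_chev (h : IsChevSimple 2 Y) (ho : Odd (Nat.card (Out Y))) : NoPu Y :=
  np_inn (St.center_eq_bot_of_chev h) (fun _ => inn_of_odd ho) fun x hx => no_cmp (chP_chev2 h x hx)

theorem np_sz (h : Lie.IsoSuzuki Y) : NoPu Y := by
  refine np_chev (.inl (by simp [IsLieTypeChar, h])) ?_
  obtain ⟨F, _, _, m, hm, hF, ⟨e⟩⟩ := h
  rw [out_congr e, Cfsg.Agent.S2126.result hm hF]
  exact odd_two_mul_add_one m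

theorem np_2F4 (h : Lie.Iso2F4 Y) : NoPu Y := by
  refine np_chev (.inl (by simp [IsLieTypeChar, h])) ?_
  obtain ⟨F, _, _, m, hm, hF, ⟨e⟩⟩ := h
  rw [out_congr e, Cfsg.Agent.S2128.result hm hF]
  exact odd_two_mul_add_one m

theorem np_tits (h : Lie.IsoTits Y) : NoPu Y := by
  obtain ⟨e⟩ := h
  refine NoPu.congr (Y := Tits.TT) e.symm (np_lieP Tits.L Tits.index_TT ?_ fun _ σ _ => ?_)
  · have := Tits.simple_TT
    exact St.center_eq_bot_of_simple Tits.not_comm_TT
  · obtain ⟨s, rfl⟩ := NT.ind σ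
    exact ⟨s, fun y => MulAut.conjNormal_apply s y⟩

theorem np_two {Γ : Type*} [Group Γ] [Finite Γ] (L : St.LieP 2 Γ) {N : Subgroup Γ} [N.Normal] (hi : N.index = 2) (e : N ≃* Y)
    (hZ : center Y = ⊥) (ho : Nat.card (Out Y) ≤ 2) : NoPu Y := by
  refine NoPu.congr e (np_lieP L hi (eq_bot_iff.2 fun x hx => e.map_eq_one_iff.1 (hZ.le (mem_center_iff.2 fun g => ?_)))
    fun hC σ _ => ?_)
  · obtain ⟨g, rfl⟩ := e.surjective g
    rw [← map_mul, mem_center_iff.1 hx, map_mul]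
  · have : N.subtype.range.Normal := by rwa [range_subtype]
    exact ind_of_card N.subtype (subtype_injective _) (by rwa [range_subtype]) (by rwa [range_subtype, hi, out_congr e]) σ

theorem np_U33 {F : Type} [Field F] [Fintype F] (hF : Fintype.card F = 9) : NoPu (PSU 3 F 3) := by
  have hc : IsChevSimple 2 (PSU 3 F 3) := .inr (.inl ⟨rfl, .inr (.inl ⟨F, _, _, hF, ⟨.refl _⟩⟩)⟩)
  obtain ⟨O⟩ := St.exists_over hc
  have := O.finite
  have := Fact.mk Nat.prime_three
  obtain ⟨e⟩ := Tits.nonempty_G2_two (ZMod.card 2) hF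
  refine np_two St.dG22.lieP St.index_G22 e (St.center_eq_bot_of_chev hc) ?_
  obtain ⟨φ, h1, -, h2⟩ := Cfsg.Agent.S2603.result (K := F) (p := 3) (f := 1) (q := 3) (n := 3) le_rfl rfl hF le_rfl (by decide)
  rw [← φ.ker.card_mul_index, h2, index_ker, MonoidHom.range_eq_top.2 h1, card_top, Nat.card_eq_fintype_card]
  decide

end Cfsg.Lib.QS
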