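import Cfsg.Agent.Lib.QS.Lh
import Cfsg.Agent.Lib.GSt.JL
import Cfsg.Agent.Lib.GSt.Inst

/-!
# QS/G2 (S1849, stub): `LieF` for `G₂(q)`, `q ≥ 4` even, and `³D₄(q)`, `q` even.
Model `GSt.Md J F K` (`j : U k →* J`, `h`, `fl`, `aut : α = conj l * fl θ`, `Θ`, `eq_Θ`, `inner_of`; `N(U) = j.range ⊔ h.range`; the models for the two families are built in the
`GSt` files that prove S3135/S3136).  `Z(U) = {zz c}`.  `z1`: `α = conj (j u * h p) * fl θ` is trivial on the two simple root coordinates (`K` and `F`), so `θ = 1`, `h p = 1`.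
`z2`: `y Z(U)` is central in `U / Z(U)`; this forces `y` into the product of the two highest long root groups (here `|K| ≥ 4` is used), which is elementary.
`z3`: `θ` is trivial on `F` (action `c ↦ λ θ(c)` on `Z(U)`), so `θ³ = 1`, and `θ⁴ = 1`: `α` is inner.  `z4`: void, `Θ` embeds `Out` in the cyclic group `RingAut K`.
-/

set_option autoImplicit false

namespace Cfsg.Lib.QS

open Subgroup Cfsg.Lib.BG Cfsg.Lib.Comp
open scoped Cfsg.Lib.Transfer commutatorElement MatrixGroups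

open G2S G2S.U in
theorem lie_md {J F K : Type*} [Group J] [Finite J] [Field F] [Field K] [Finite F] [Finite K] (m : GSt.Md J F K) : LieF J := by
  refine lieF_of m.j m.em.inj m.em.syl (fun α c _ hc _ h => ?_) (fun y h1 h2 => ?_) (fun α a h k => ?_) fun σ t a b _ n1 n2 n3 => ?_
  · have hz := mem_Z_of (a := c) fun b _ => commutatorElement_eq_one_iff_mul_comm.2 (hc b).symm
    have k : ∀ u, ∃ d, α (m.j u) = m.j (u * zz m.k d) := fun u => (h u).elim (fun e => ⟨0, by simpa using e⟩) fun e => ⟨_, eq_zz hz ▸ e⟩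
    obtain ⟨u, -, e⟩ := m.CQ (fun u _ => k u) (by
      obtain ⟨x, p⟩ := k (x10 m.k 1)
      obtain ⟨y, q⟩ := k (x2 m.k 1)
      have e : zz m.k 1 = ⁅x10 m.k 1, x2 m.k 1⁆ := by rw [cm_V _ (x2_V _)]; simp [x10, x2]
      rw [GSt.Md.z]
      conv_lhs => rw [e, map_commutatorElement, map_commutatorElement, p, q, ← map_commutatorElement,
        cm_V _ (mul_mem (x2_V 1) (Z_V (zz_mem y)))]
      simp [x10, x2, zz, mul_c])
    exact ⟨u, e⟩
  · have hz := mem_Z_of (a := y * y) fun b _ => commutatorElement_eq_one_iff_mul_comm.2 (h1 b).symm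
    have k : ∀ x : U m.k, ⁅x, y⁆ ∈ Z m.k := fun x => (h2 x).elim (fun e => e ▸ one_mem _) fun e => e ▸ hz
    exact sq_A0 (V_A0 (mem_V_of_Z (fun _ => k _) (k _)))
  · obtain ⟨u, rfl⟩ := m.two_el (n := 2) a h fun c => k _ (fun x => comm_Z x (zz_mem c)) (GSt.zz_sq c)
    exact mul_mem ⟨_, rfl⟩ ⟨_, rfl⟩
  · have i : ∀ α, α ∉ Inn J → m.Θ α ≠ 1 := fun α n e => let ⟨l, e'⟩ := m.eq_Θ α; n ⟨l, by simpa [e] using e'.symm⟩
    have q : ∀ α, α * α = 1 → m.Θ α * m.Θ α = 1 := fun α e => by rw [← map_mul, e, map_one]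
    exact i _ n3 (by rw [map_mul, ← GSt.eq_of_inv (q σ a) (q t b) (i σ n1) (i t n2), q σ a])

variable {F : Type} [Field F] [Fintype F] [CharP F 2]

theorem lie_G2 (h : 4 ≤ Fintype.card F) : LieF (Lie.chevG2.group F) := by
  obtain ⟨n, -, e⟩ := FiniteField.card F 2
  obtain ⟨m⟩ := GSt.md_G2 F n (by
    by_contra c
    have := Nat.pow_le_pow_right (n := 2) two_pos (show (n : ℕ) ≤ 1 by omega)
    omega) e
  exact lie_md m

theorem lie_3D4 {q : ℕ} (hq : IsPrimePow q) (h : Fintype.card F = q ^ 3) : LieF (Lie.twistedD4 F q) := by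
  obtain ⟨n, -, e⟩ := FiniteField.card F 2
  obtain ⟨k, -, rfl⟩ := (Nat.dvd_prime_pow Nat.prime_two).1 (show q ∣ 2 ^ (n : ℕ) from e ▸ h ▸ dvd_pow_self q three_ne_zero)
  obtain ⟨K, _, _, -, ⟨m⟩⟩ := GSt.md_D4 F k (Nat.pos_of_ne_zero (by rintro rfl; exact hq.ne_one rfl))
    (by rw [h, ← pow_mul, mul_comm, pow_mul]; rfl)
  exact lie_md m

end Cfsg.Lib.QS
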