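import Cfsg.Agent.Lib.QS.Def

/-! # QS/Lh (S1849): `LieF` from a model `j : X →* Y` of the Sylow subgroup, when `Out Y` has no four-group. -/

set_option autoImplicit false

namespace Cfsg.Lib.QS

open Subgroup Cfsg.Lib.BG Cfsg.Lib.Comp
open scoped Cfsg.Lib.Transfer commutatorElement

theorem lieF_of {X Y : Type*} [Group X] [Group Y] (j : X →* Y) (inj : Function.Injective j) (syl : Syl 2 j.range ⊤)
    (z1 : ∀ (α : MulAut Y) (c : X), α ^ 4 = 1 → (∀ x, x * c = c * x) → c * c = 1 → (∀ x, α (j x) = j x ∨ α (j x) = j (x * c)) →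
      ∃ u, α = MulAut.conj (j u))
    (z2 : ∀ y : X, (∀ x, x * (y * y) = y * y * x) → (∀ x : X, ⁅x, y⁆ = 1 ∨ ⁅x, y⁆ = y * y) → y * y = 1)
    (z3 : ∀ α : MulAut Y, α ^ 4 = 1 → (∀ x, α (j x) ∈ j.range) → (∀ c, (∀ x, x * c = c * x) → c * c = 1 → α (j c) = j c) → α * α ∈ Inn Y)
    (z4 : ∀ σ t : MulAut Y, σ * σ = 1 → t * t = 1 → σ * t = t * σ → σ ∉ Inn Y → t ∉ Inn Y → σ * t ∉ Inn Y → False) : LieF Y := by
  refine ⟨j.range, syl, ?_, ?_, fun α a h k => z3 α a (fun x => h _ ⟨x, rfl⟩) fun c hc c2 => k _ ⟨c, rfl⟩ (mem_cent.2 ?_)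
    (by rw [← map_mul, c2, map_one]), fun σ t a b c n1 n2 n3 => (z4 σ t a b c n1 n2 n3).elim⟩
  · rintro α _ a ⟨c, rfl⟩ hc c2 h
    have k : ∀ x, x * c = c * x := fun x => inj (by simpa using mem_cent.1 hc _ ⟨x, rfl⟩)
    obtain ⟨u, e⟩ := z1 α c a k (inj (by simpa using c2)) fun x => by simpa only [k, map_mul] using h _ ⟨x, rfl⟩
    exact ⟨_, ⟨u, rfl⟩, e⟩
  · rintro _ ⟨y, rfl⟩ a h
    have q : y⁻¹ * y⁻¹ = y * y := by
      rw [← mul_inv_rev, inv_eq_iff_mul_eq_one, ← inj.eq_iff, map_one, ← a]; simp only [pow_succ, pow_zero, one_mul, mul_assoc, map_mul]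
    replace h : ∀ x, x * y * x⁻¹ = y ∨ x * y * x⁻¹ = y⁻¹ := fun x =>
      (h _ ⟨x, rfl⟩).imp (fun e => inj (by simpa using e)) fun e => inj (by simpa using e)
    rw [← map_mul, z2 y (fun x => ?_) fun x => (h x).imp (fun e => ?_) fun e => ?_, map_one]
    · rw [← mul_inv_eq_iff_eq_mul, ← conj_mul]
      rcases h x with e | e <;> rw [e]
      exact q
    · rw [commutatorElement_def, e, mul_inv_cancel]
    · rw [commutatorElement_def, e, q]
  · rintro _ ⟨x, rfl⟩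
    rw [← map_mul, hc, map_mul]

end Cfsg.Lib.QS
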