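import Cfsg.Agent.Lib.QS.Lh

/-! # QS/Lh2 (S1849): `z4` for `Out` = odd by cyclic; semilinear maps that fix half of the field. -/

set_option autoImplicit false

namespace Cfsg.Lib.QS

open Subgroup

theorem z4_of_hom {Y C : Type*} [Group Y] [Group C] [Finite C] [IsCyclic C] (φ : Out Y →* C) (o : Odd (Nat.card φ.ker)) (σ t : MulAut Y)
    (a : σ * σ = 1) (b : t * t = 1) (c : σ * t = t * σ) (n1 : σ ∉ Inn Y) (n2 : t ∉ Inn Y) (n3 : σ * t ∉ Inn Y) : False := by
  classical
  refine z4_of_cyc (fun x y hx hy h => ?_) a b c n1 n2 n3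
  have k : ∀ x : Out Y, x * x = 1 → φ x = 1 → x = 1 := fun x hx e => by
    obtain ⟨r, hr⟩ := o
    have : x ^ (2 * r + 1) = 1 := hr ▸ congrArg Subtype.val (pow_card_eq_one' (x := (⟨x, e⟩ : φ.ker)))
    rwa [pow_succ, pow_mul, sq, hx, one_pow, one_mul] at this
  by_contra! f
  have := Fintype.ofFinite C
  have q : ∀ x : Out Y, x * x = 1 → φ x * φ x = 1 := fun x hx => by rw [← map_mul, hx, map_one]
  have n : φ x ≠ φ y := fun e => f.2.2 (k _ (by rw [mul_assoc, ← mul_assoc y, ← h, mul_assoc, hy, mul_one, hx]) (by rw [map_mul, e, q y hy]))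
  have := (Finset.card_le_card (s := {1, φ x, φ y}) fun z hz => by
    simp only [Finset.mem_insert, Finset.mem_singleton] at hz
    rcases hz with rfl | rfl | rfl <;> simp [sq, q, hx, hy]).trans (IsCyclic.card_pow_eq_one_le (α := C) two_pos)
  rw [Finset.card_eq_three.2 ⟨_, _, _, Ne.symm (mt (k x hx) f.1), Ne.symm (mt (k y hy) f.2.1), n, rfl⟩] at this
  omega

theorem semi_fix {F : Type*} [Field F] [Fintype F] (h : 4 < Fintype.card F) (σ : F ≃+* F) {a c : F}
    (k : ∀ b, a * σ b = b ∨ a * σ b = b + c) (b : F) : a * σ b = b := by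
  classical
  by_contra x
  have hx := (k b).resolve_left x
  have c0 : c ≠ 0 := fun e => x (by simpa [e] using hx)
  have u : ∀ y z, a * σ y = y → a * σ z = z → y ≠ 0 → z = 0 ∨ z = y := fun y z hy hz y0 => by
    have a0 : a ≠ 0 := fun e => y0 (by simpa [e] using hy.symm)
    have e : σ (z / y) = z / y := by rw [map_div₀, ← mul_div_mul_left _ _ a0, hy, hz]
    have := k (z / y * b)
    rw [map_mul, e, mul_left_comm, hx, mul_add, add_eq_left, add_right_inj, mul_eq_zero, mul_eq_right₀ c0, div_eq_zero_iff, div_eq_one_iff_eq y0] at this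
    tauto
  obtain ⟨y, hy⟩ : ∃ y, ∀ z, a * σ z = z → z = 0 ∨ z = y := by
    by_cases e : ∃ y, a * σ y = y ∧ y ≠ 0
    · exact e.imp fun y hy z hz => u y z hy.1 hz hy.2
    · exact ⟨0, fun z hz => .inl (by_contra fun c => e ⟨z, hz, c⟩)⟩
  refine h.not_ge ((Finset.card_le_card (t := {0, y, b, y + b}) fun z _ => ?_).trans Finset.card_le_four)
  simp only [Finset.mem_insert, Finset.mem_singleton]
  rcases k z with e | e
  · exact (hy z e).imp_right .inl
  · refine .inr (.inr ((hy (z - b) (by rw [map_sub, mul_sub, e, hx]; ring)).imp sub_eq_zero.1 eq_add_of_sub_eq))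

end Cfsg.Lib.QS
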