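import Cfsg.Agent.Lib.QS.Def
import Cfsg.Agent.Lib.Calc.RUA

/-!
# QS/RuA: the centralizer `H` of a 2-central involution `z` of `Ru` in the model `Calc/RUA`.
`T` is a Sylow 2-subgroup, `E = 2⁵` is normal in `H` with `C_H(E) ≤ T`, and `z` is the only involution of `C_H(T)`.
-/

set_option autoImplicit false
set_option maxRecDepth 100000

namespace Cfsg.Lib.QS.RuA

open Subgroup Cfsg.Lib.BG Cfsg.Lib.Comp Cfsg.Lib.Calc Cfsg.Lib.T2 Cfsg.Lib.Big Cfsg.Lib.Big.RU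
open scoped Cfsg.Lib.Transfer

def es : List W := [.l 13, .l 19, .l 20, wd [4, 18], wd [7, 20, 7]]

def tb : List (W × W × W) := [(.l 1, .l 13, .l 13), (.l 1, .l 19, .mul (.l 13) (.l 19)), (.l 1, .l 20, .mul (.l 13) (.l 20)), (.l 1, wd [4, 18], .mul (.l 13) (wd [4, 18])), (.l 1, wd [7, 20, 7], .mul (.l 13) (wd [7, 20, 7])), (.l 2, .l 13, .l 13), (.l 2, .l 19, .l 19), (.l 2, .l 20, .l 20), (.l 2, wd [4, 18], .mul (.l 13) (.mul (.l 19) (wd [4, 18]))), (.l 2, wd [7, 20, 7], .mul (.l 13) (.mul (.l 19) (.mul (.l 20) (wd [7, 20, 7])))), (.l 3, .l 13, .l 13), (.l 3, .l 19, .l 19), (.l 3, .l 20, .mul (.l 13) (.mul (.l 19) (.l 20))), (.l 3, wd [4, 18], .mul (.l 13) (.mul (.l 19) (wd [4, 18]))), (.l 3, wd [7, 20, 7], .mul (.l 13) (.mul (.l 20) (.mul (wd [4, 18]) (wd [7, 20, 7])))), (.l 4, .l 13, .l 13), (.l 4, .l 19, .l 19), (.l 4, .l 20, .mul (.l 19) (.l 20)), (.l 4, wd [4, 18], wd [4, 18]), (.l 4, wd [7, 20, 7],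 .mul (.l 13) (.mul (wd [4, 18]) (wd [7, 20, 7]))), (.l 5, .l 13, .l 13), (.l 5, .l 19, .l 20), (.l 5, .l 20, .l 19), (.l 5, wd [4, 18], wd [7, 20, 7]), (.l 5, wd [7, 20, 7], wd [4, 18]), (.l 7, .l 13, .l 13), (.l 7, .l 19, wd [4, 18]), (.l 7, .l 20, wd [7, 20, 7]), (.l 7, wd [4, 18], .l 19), (.l 7, wd [7, 20, 7], .l 20), (.l 8, .l 13, .l 13), (.l 8, .l 19, wd [7, 20, 7]), (.l 8, .l 20, wd [4, 18]), (.l 8, wd [4, 18], .l 20), (.l 8, wd [7, 20, 7], .l 19), (.l 9, .l 13, .l 13), (.l 9, .l 19, .l 19), (.l 9, .l 20, .l 20), (.l 9, wd [4, 18], wd [4, 18]), (.l 9, wd [7, 20, 7], .mul (.l 13) (wd [7, 20, 7])), (.l 11, .l 13, .l 13), (.l 11, .l 19, .l 19), (.l 11, .l 20, .mul (.l 13) (.mul (.l 19) (.l 20))), (.l 11, wd [4, 18], .mul (.l 19) (.mul (.l 20) (wd [4, 18]))), (.l 11, wd [7, 20, 7], .mul (.l 19) (.mul (wd [4, 18]) (wd [7, 20, 7])))]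

theorem tb_ok : (hs.all fun h => es.all fun e => tb.any fun p => band (band (p.1.beq h) (p.2.1.beq e))
    (band (p.2.2.overW es) (eR.weq gc gi (.mul (.mul h e) (.inv h)) p.2.2))) = true := by decide +kernel

theorem cm_ok : (es.all fun a => es.all fun b => eR.weq gc gi (.mul a b) (.mul b a)) = true := by decide +kernel

theorem fQ_ev : hp.eval (.all 0 100 [(.l 19, .l 19), (.l 20, .l 20), (wd [4, 18], wd [4, 18]), (wd [7, 20, 7], wd [7, 20, 7])]
    (.mem 1 (.l 100))) = true := by decide +kernel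

theorem fZ_ev : hp.eval (.all 0 100 [(.l 1, .l 1), (.l 2, .l 2), (.l 3, .l 3), (.l 4, .l 4), (.l 9, .l 9), (.l 11, .l 11)]
    (.or (.one (.l 100)) (.eq (.l 100) (.l 19)))) = true := by decide +kernel

theorem weq {s t : W} (e : eR.weq gc gi s t = true) : s.ev gR = t.ev gR := by rw [gR]; exact valR'.eq lawR e

theorem nE : genW gR hs ≤ 𝐍(genW gR es) := genW_le_normalizer fun a ha b hb => by
  obtain ⟨p, -, r⟩ := List.any_eq_true.1 (List.all_eq_true.1 (List.all_eq_true.1 tb_ok a ha) b hb)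
  have r := band_eq_true.1 (band_eq_true.1 r).2
  exact (congrArg (· ∈ genW gR es) (weq r.2)).mpr (W.ev_mem_of_overW labR.zero (fun _ => mem_genW _) r.1)

theorem cE : genW gR es ≤ 𝐂(genW gR es) := genW_le.2 fun a ha => mem_cent.2 fun _ hx =>
  mem_cent1.1 (genW_le_centralizer (fun b hb => weq (List.all_eq_true.1 (List.all_eq_true.1 cm_ok b hb) a ha)) hx)

theorem oz : orderOf (gR 13) = 2 := orderOf_eq_prime ((sq _).trans (labR.inv 13)) z_ne

theorem hs_le : genW gR hs ≤ 𝐂[gR 13] := genW_le_centralizer fun a ha =>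
  weq (s := .mul a (.l 13)) (t := .mul (.l 13) a) (by revert a; decide +kernel)

theorem cardT : Nat.card (genW gR (hp.ws 1)) = 2 ^ 14 := (card_ws 1 (by decide)).trans (congrArg (2 * ·) hp_card1)

theorem zT : gR 13 ∈ genW gR (hp.ws 1) :=
  mem_genW_of_subOK labR hints relD (by decide +kernel : subOK iv RD (hp.ws 1) hints [.l 13] = true) _ List.mem_cons_self

theorem sylT : Syl 2 (genW gR (hp.ws 1)) ⊤ := Syl.mk' le_top (.of_card cardT) (by
  have := card_mul_index (genW gR (hp.ws 1))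
  rw [cardT, Ru.card_Ru] at this
  rw [relIndex_top_right]
  omega)

variable (h : 𝐂[gR 13] = genW gR hs)
include h

theorem no_cmp {M : Subgroup Spor.Ru} (c : Cmp M 𝐂[gR 13]) : False := by
  have m : ∀ t ∈ es, t.ev gR ∈ genW gR es := fun _ => mem_genW _
  have a : M ≤ 𝐂(genW gR es) := c.cent_of_sol (le_cent1_iff.2 (cE (m (.l 13) List.mem_cons_self)))
    (Group.isSolvable_of_comm (le_centralizer_iff_isMulCommutative.1 cE).is_comm.comm) (c.le.trans (h ▸ nE))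
  have b : M ≤ genW gR (hp.ws 1) := fun x hx => by
    have k : ∀ t ∈ es, Md (gR 13) (x * t.ev gR) (t.ev gR * x) := fun t ht => .inl (mem_cent.1 (a hx) _ (m t ht)).symm
    obtain ⟨y, hy, r⟩ := hp_ok.trM barH hp_fix fQ_ev x (h.le (c.le hx)) (k (.l 19) (by simp [es])) (k (.l 20) (by simp [es]))
      (k (wd [4, 18]) (by simp [es])) (k (wd [7, 20, 7]) (by simp [es]))
    exact r.mem zT hy
  exact isQuasisimple_not_isSolvable c.qs (pgroup_sol (sylT.pgroup.to_le b))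

theorem cen_T {x : Spor.Ru} (a : x ∈ 𝐂(genW gR (hp.ws 1))) : x = 1 ∨ x = gR 13 := by
  have k : ∀ c, (W.l c).isIn (hp.ws 1) = true → x * gR c = gR c * x := fun c ht =>
    (mem_cent.1 a _ (mem_genW _ (W.mem_of_isIn ht))).symm
  have n : gR 19 * gR 1 ≠ gR 1 * gR 19 := rne (s := wd [19, 1]) (t := wd [1, 19]) (by decide +kernel)
  have k1 : x * gR 1 = gR 1 * x := k 1 rfl
  rcases hp_ok.trM barH hp_fix fZ_ev x (h.le (mem_cent1.2 (mem_cent.1 a _ zT).symm)) (.inl k1) (.inl (k 2 rfl))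
    (.inl (k 3 rfl)) (.inl (k 4 rfl)) (.inl (k 9 rfl)) (.inl (k 11 rfl)) with r | r | r
  · exact r
  · exact absurd (show x = gR 19 from r) fun r => n (r ▸ k1)
  · refine absurd (show x = gR 13 * gR 19 from r) fun r => n (mul_left_cancel (a := gR 13) ?_)
    rw [← mul_assoc, ← r, k1, r, ← mul_assoc, ← mul_assoc, show gR 1 * gR 13 = gR 13 * gR 1 from
      mem_cent1.1 (hs_le (mem_genW _ (t := .l 1) List.mem_cons_self))]

end Cfsg.Lib.QS.RuA
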