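import Cfsg.Agent.Lib.QS.Def
import Cfsg.Prelude.Def_Sz
import Cfsg.Agent.Lib.Alt.Aut
import Cfsg.Agent.Lib.Char.Burnside
import Cfsg.Agent.Lib.Inv.Count
import Cfsg.Agent.Lib.PSL2.SmallIso
import Cfsg.Agent.Lib.Sz.Simple
import Cfsg.Agent.S1008
import Cfsg.Agent.S2126

/-!
# QS/Sm (S1849): facts on the small groups `A₅, L₃(2), A₆, A₈, Sz(8)` that occur as components in `M₁₂, J₂, HS, Ru`.
* `A4`: explicit permutations (`decide`); for order 168 any route (e.g. `N(V) ≅ S₄`, or an isomorphism with `L₃(2)`).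
* `tw_A5`: `Aut(A₅) = S₅`; `τ` is conjugation by a double transposition, its centralizer in `S₅` has order 8.
* `Sv`: the fixed subgroup is proper.  `A₅`, order 168: proper subgroups are solvable.  `A₆`: it contains a Sylow 2-subgroup, so if non-solvable its order is a
  multiple of 120, index `≤ 3`.  `A₈`: `τ` is inner (`St.inner_of_fix` with `A₈ ≅ L₄(2)`, or `Aut = S₈` and orders), `C(τ)` has order 192 or 96, a `{2,3}`-group (Burnside).
* `zb_sz`: `S2126`; `Z(S)` is elementary of order `q ≥ 8` (`Sz.lieModel`).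
-/

set_option autoImplicit false

namespace Cfsg.Lib.QS

open Subgroup Cfsg.Lib.BG Cfsg.Lib.Comp
open scoped Cfsg.Lib.Transfer commutatorElement MatrixGroups

variable {M : Type*} [Group M] [Finite M]

omit [Finite M] in
theorem A4.of_inj {N : Type*} [Group N] (h : A4 N) (f : N →* M) (hf : Function.Injective f) : A4 M :=
  let ⟨a, g, h1, h2, h3, h4⟩ := h
  ⟨f a, f g, by rw [← map_mul, h1, map_one], (map_ne_one_iff f hf).2 h2, by rw [← map_pow, h3, map_one],
    by simpa using congrArg f h4⟩

theorem a4_four : A4 (alternatingGroup (Fin 4)) :=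
  ⟨⟨Equiv.swap 0 1 * Equiv.swap 2 3, Equiv.Perm.mem_alternatingGroup.2 (by decide)⟩,
    ⟨Equiv.swap 0 1 * Equiv.swap 1 2, Equiv.Perm.mem_alternatingGroup.2 (by decide)⟩, Subtype.ext (by decide),
    fun h => absurd (congrArg Subtype.val h) (by decide), Subtype.ext (by decide), Subtype.ext (by decide)⟩

theorem a4_alt {n : ℕ} (h : 4 ≤ n) : A4 (alternatingGroup (Fin n)) := by
  classical
  let e := Equiv.ofInjective _ (Fin.castLE_injective h)
  refine a4_four.of_inj (((Equiv.Perm.extendDomainHom e).comp (alternatingGroup (Fin 4)).subtype).codRestrict _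
    fun x => ?_) fun x y r => Subtype.ext (Equiv.Perm.extendDomainHom_injective e (congrArg Subtype.val r))
  rw [Equiv.Perm.mem_alternatingGroup]
  exact (Equiv.Perm.sign_extendDomain _ e).trans x.2

theorem a4_168 [IsSimpleGroup M] (h : Nat.card M = 168) : A4 M := by
  obtain ⟨-, -, X, -, -, -, ⟨e⟩, -⟩ := Agent.S1008.result h
  exact ((a4_four.of_inj _ (alternatingGroup (Fin 4)).subtype_injective).congr e.symm).of_inj _ X.subtype_injective

/-- the fixed points of `τ` form a proper subgroup of odd index -/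
theorem Ct.odd {τ : MulAut M} (h : Ct τ) : fixedSubgroup τ ≠ ⊤ ∧ ¬ 2 ∣ (fixedSubgroup τ).index := by
  obtain ⟨-, b, S, c, d⟩ := h
  refine ⟨fun k => b (MulEquiv.ext fun x => mem_fix.1 (k ▸ mem_top x)), fun k => c.not_dvd' ?_⟩
  rw [relIndex_top_right]
  exact k.trans (index_dvd_of_le fun s hs => mem_fix.2 (d s hs))

/-- Burnside for a subgroup whose index is known -/
theorem solv_of_index {H : Subgroup M} {n i p : ℕ} (h : Nat.card M = n) (hi : H.index = i) (hp : p.Prime) (i0 : i ≠ 0)
    (k : n / i ∣ 2 ^ 3 * p ^ 1) : Group.IsSolvable H := by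
  refine Char.isSolvable_of_card_dvd_pow_mul_pow H Nat.prime_two hp (.trans (dvd_of_eq ?_) k)
  rw [← h, ← card_mul_index H, hi, Nat.mul_div_cancel _ (Nat.pos_of_ne_zero i0)]

theorem sv_of_card [IsSimpleGroup M] (h : Nat.card M = 60 ∨ Nat.card M = 168 ∨ Nat.card M = 360) : Sv M := fun τ a => by
  obtain ⟨b, c⟩ := a.odd
  have d := Inv.card_dvd_factorial_index b
  have e := index_dvd_card (fixedSubgroup τ)
  obtain ⟨i, hi⟩ : ∃ i, (fixedSubgroup τ).index = i := ⟨_, rfl⟩
  rw [hi] at c d e
  have c' : i.Coprime 8 := (Nat.coprime_two_right.2 (Nat.odd_iff.2 (by omega))).pow_right 3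
  rcases h with h | h | h <;> rw [h] at d e
  · have : i ∈ Nat.divisors 15 := Nat.mem_divisors.2 ⟨c'.dvd_of_dvd_mul_left (e.trans (by decide)), by decide⟩
    simp only [show Nat.divisors 15 = {1, 3, 5, 15} by decide, Finset.mem_insert, Finset.mem_singleton] at this
    rcases this with rfl | rfl | rfl | rfl
    exacts [absurd d (by decide), absurd d (by decide), solv_of_index h hi Nat.prime_three (by decide) (by decide),
      solv_of_index h hi Nat.prime_three (by decide) (by decide)]
  · have : i ∈ Nat.divisors 21 := Nat.mem_divisors.2 ⟨c'.dvd_of_dvd_mul_left (e.trans (by decide)), by decide⟩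
    simp only [show Nat.divisors 21 = {1, 3, 7, 21} by decide, Finset.mem_insert, Finset.mem_singleton] at this
    rcases this with rfl | rfl | rfl | rfl
    exacts [absurd d (by decide), absurd d (by decide), solv_of_index h hi Nat.prime_three (by decide) (by decide),
      solv_of_index h hi Nat.prime_three (by decide) (by decide)]
  · have : i ∈ Nat.divisors 45 := Nat.mem_divisors.2 ⟨c'.dvd_of_dvd_mul_left (e.trans (by decide)), by decide⟩
    simp only [show Nat.divisors 45 = {1, 3, 5, 9, 15, 45} by decide, Finset.mem_insert, Finset.mem_singleton] at this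
    rcases this with rfl | rfl | rfl | rfl | rfl | rfl
    exacts [absurd d (by decide), absurd d (by decide), absurd d (by decide),
      solv_of_index h hi Nat.prime_five (by decide) (by decide), solv_of_index h hi Nat.prime_three (by decide) (by decide),
      solv_of_index h hi Nat.prime_three (by decide) (by decide)]

theorem card_A {n m : ℕ} (hn : 2 ≤ n) (h : n.factorial = 2 * m) : Nat.card (alternatingGroup (Fin n)) = m := by
  have := PSL2.card_alternating_fin n hn
  omega

open Equiv Equiv.Perm in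
/-- `τ` is conjugation by an involution `s` of `Sₙ`; the order of `C(s)` -/
theorem Ct.alt {n m : ℕ} (h4 : 4 ≤ n) (h6 : n ≠ 6) {τ : MulAut (alternatingGroup (Fin n))} (h : Ct τ)
    (hm : 2 ^ m ∣ Nat.card (alternatingGroup (Fin n))) :
    ∃ (s : Perm (Fin n)) (k : ℕ), MulAut.conjNormal s = τ ∧ 2 * (k + 1) ≤ n ∧ sign s = (-1) ^ (k + 1) ∧
      Nat.card 𝐂[s] = (n - 2 * (k + 1)).factorial * 2 ^ (k + 1) * (k + 1).factorial ∧
      2 ^ m ∣ Nat.card (fixedSubgroup τ) ∧
      Nat.card (fixedSubgroup τ) * (alternatingGroup (Fin n)).relIndex 𝐂[s] = Nat.card 𝐂[s] := by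
  have bj := Alt.conjNormal_bijective (α := Fin n) (by simpa) (by simpa)
  obtain ⟨s, rfl⟩ := bj.2 τ
  have o : orderOf s = 2 := orderOf_eq_prime (bj.1 (by rw [map_pow, sq, h.1, map_one])) fun r => h.2.1 (by rw [r, map_one])
  obtain ⟨k, hk⟩ := cycleType_prime_order (σ := s) (o ▸ Nat.prime_two)
  rw [o] at hk
  have l := sum_cycleType_le s
  have c := nat_card_centralizer s
  have g := sign_of_cycleType s
  rw [hk] at l c g
  simp only [Multiset.sum_replicate, smul_eq_mul, Fintype.card_fin, Multiset.card_replicate, Multiset.prod_replicate,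
    Multiset.toFinset_replicate, Nat.succ_ne_zero, if_false, Finset.prod_singleton, Multiset.count_replicate_self] at l c g
  refine ⟨s, k, rfl, by omega, by rw [g, pow_add, pow_mul, sq, ← mul_pow]; simp, by rw [mul_comm 2]; exact c, ?_, ?_⟩
  · have := card_mul_index (fixedSubgroup (MulAut.conjNormal s : MulAut (alternatingGroup (Fin n))))
    rw [← this] at hm
    exact ((Nat.coprime_two_left.2 (Nat.odd_iff.2 (by have := h.odd.2; omega))).pow_left m).dvd_of_dvd_mul_right hm
  · have r : (fixedSubgroup (MulAut.conjNormal s : MulAut (alternatingGroup (Fin n)))).map (Subgroup.subtype _) =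
        alternatingGroup (Fin n) ⊓ 𝐂[s] := by
      ext x
      constructor
      · rintro ⟨x, hx, rfl⟩
        exact ⟨x.2, mem_cent1.2 (eq_mul_inv_iff_mul_eq.1 (congrArg Subtype.val (mem_fix.1 hx)).symm)⟩
      · rintro ⟨a, b⟩
        exact ⟨⟨x, a⟩, mem_fix.2 (Subtype.ext (eq_mul_inv_iff_mul_eq.2 (mem_cent1.1 b)).symm), rfl⟩
    rw [← card_map_of_injective (Subgroup.subtype_injective _), r, ← inf_relIndex_right, relIndex,
      ← card_mul_index ((alternatingGroup (Fin n) ⊓ 𝐂[s]).subgroupOf 𝐂[s]),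
      Nat.card_congr (subgroupOfEquivOfLe inf_le_right).toEquiv]

theorem tw_A5 : Tw (alternatingGroup (Fin 5)) := fun τ β a b c => by
  obtain ⟨s, k, rfl, l, g, d, e, f⟩ := a.alt (m := 2) (by decide) (by decide) (by rw [card_A (m := 60)] <;> decide)
  have bj := Alt.conjNormal_bijective (α := Fin 5) (by simp) (by simp)
  obtain ⟨t, rfl⟩ := bj.2 β
  obtain rfl | rfl : k = 0 ∨ k = 1 := by omega
  · have i := relIndex_dvd_index_of_normal (alternatingGroup (Fin 5)) 𝐂[s]
    rw [alternatingGroup.index_eq_two] at i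
    rcases (Nat.dvd_prime Nat.prime_two).1 i with i | i
    · have := Equiv.Perm.mem_alternatingGroup.1 (relIndex_eq_one.1 i (mem_cent1.2 rfl))
      rw [g] at this
      exact absurd this (by decide)
    · rw [i, d] at f
      simp only [Nat.factorial] at f
      omega
  · have m : t ∈ 𝐂[s] := mem_cent1.2 (bj.1 (by rw [map_mul, map_mul, b]))
    have o := orderOf_dvd_natCard (⟨t, m⟩ : 𝐂[s])
    rw [d, orderOf_mk] at o
    rw [orderOf_injective _ bj.1] at c
    rw [orderOf_eq_one_iff.1 (((Nat.coprime_two_right.2 c).pow_right 3).eq_one_of_dvd (o.trans (by decide))), map_one]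

theorem sv_A5 : Sv (alternatingGroup (Fin 5)) :=
  haveI := alternatingGroup.isSimpleGroup (α := Fin 5) (by simp)
  sv_of_card (.inl (card_A (by decide) (by decide)))

theorem sv_168 [IsSimpleGroup M] (h : Nat.card M = 168) : Sv M := sv_of_card (.inr (.inl h))

theorem sv_A6 : Sv (alternatingGroup (Fin 6)) :=
  haveI := alternatingGroup.isSimpleGroup (α := Fin 6) (by simp)
  sv_of_card (.inr (.inr (card_A (by decide) (by decide))))

theorem sv_A8 : Sv (alternatingGroup (Fin 8)) := fun τ a => by
  obtain ⟨s, k, rfl, l, -, d, e, f⟩ := a.alt (m := 6) (by decide) (by decide) (by rw [card_A (m := 20160)] <;> decide)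
  have g := Dvd.intro _ (f.trans d)
  obtain rfl | rfl | rfl | rfl : k = 0 ∨ k = 1 ∨ k = 2 ∨ k = 3 := by omega
  · exact absurd (e.trans g) (by decide)
  all_goals exact Char.isSolvable_of_card_dvd_pow_mul_pow _ (a := 7) (b := 1) Nat.prime_two Nat.prime_three (g.trans (by decide))

theorem zb_sz (h : Lie.IsoSuzuki M) : Zb M := by
  obtain ⟨F, _, _, m, hm, hF, ⟨e⟩⟩ := h
  refine ⟨by rw [out_congr e, Agent.S2126.result hm hF]; exact odd_two_mul_add_one m, fun S hS => ?_⟩
  obtain ⟨P, rfl⟩ := Syl.top_iff_sylow.1 hS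
  obtain ⟨x, hx⟩ := ((Sz.lieModel hF).congr e).exists_conj_U_eq P
  generalize ((Sz.lieModel hF).congr e).conj x = N at hx
  rw [hx]
  refine ⟨N.Z, N.Z_le_U, fun a ha => mem_cent.2 fun y hy => N.comm_of_mem_Z ha hy, fun a ha => (N.mem_Z_iff.1 ha).2, ?_⟩
  rw [N.card_Z, Nat.card_eq_fintype_card, hF]
  exact Nat.pow_le_pow_right (n := 2) (i := 3) two_pos (by omega)

end Cfsg.Lib.QS
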