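import Cfsg.Agent.Lib.QS.Def
import Cfsg.Agent.Lib.QT.CycLie
import Cfsg.Agent.Lib.QT.CycLin
import Cfsg.Agent.Lib.QT.CycOr

/-!
# QS/SqA (S1849): classical groups in characteristic 2 with an odd elementary abelian subgroup of rank 3.
This is the rank 3 version of `QT/Cyc*.lean` (`Br`, `Br.nc`, `BP`, `bp_SL`, `bp_Sp`, `nc_diag`, `bad_PSU`, `nc_omega`, `bad_pcom`).
* `b3_br`: three pairwise commuting braid pairs; the elements `(a b)²` have order 3 (`Br.cube`), and `(a b)²` does not commute with `a`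
  (`Br.not_comm_sq`), so they are independent.  `Br.map` passes to central quotients.
* `L_n(q)`, `n ≥ 6`: simple roots 1, 3, 5.  `L₄(q), L₅(q)`, `q > 2`, and `U_n(q)`, `n ≥ 4`: diagonal matrices with entries in the group of
  `r`-th roots of unity, `r ∣ q - 1` resp. `r ∣ q + 1` prime (odd); for `r ∣ n` one loses one rank to the scalars
  (`n = 4`: `r ∤ n`, rank 3; `n ≥ 5`: rank `≥ n - 2`).
* `Sp_{2m}`, `m ≥ 3`: three long roots `2 eᵢ`.  `Ω^±_{2m}`, `m ≥ 4`: `nc_omega` uses two hyperbolic pairs for two braid pairs of reflections;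
  the third pair is `u = e + f`, `v = f + w` with a third hyperbolic pair `e, f` and `Q w = 1` in the remaining plane.
-/

set_option autoImplicit false

namespace Cfsg.Lib.QS

open Subgroup Cfsg.Lib.BG Cfsg.Lib.Comp
open scoped Cfsg.Lib.Transfer commutatorElement MatrixGroups

theorem b3_of_hom {X G : Type*} [Group X] [Group G] {p : ℕ} (hp : p.Prime) (h2 : p ≠ 2) (hc : ∀ x y : X, x * y = y * x)
    (hX : ∀ x : X, x ^ p = 1) (hn : p ^ 3 ≤ Nat.card X) (f : X →* G) (hf : ∀ x, f x = 1 → x = 1) : B3 G :=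
  B3.of_inj ⟨p, hp, h2, ⊤, ⟨⟨fun a b => Subtype.ext (hc _ _)⟩⟩, fun a _ => hX a, by rwa [card_top]⟩ f
    ((injective_iff_map_eq_one f).2 hf)

theorem B3.of_two {G H : Type*} [Group G] [Group H] (h : B3 G) (f : G →* H) (hf : ∀ x, f x = 1 → x ^ 2 = 1) : B3 H :=
  let ⟨_, a, b, A, c, d, k⟩ := h
  b3_of_hom a b (fun x y => c.1.1 x y) (fun x => Subtype.ext (d x x.2)) k (f.comp A.subtype) fun x hx =>
    Subtype.ext (QT.eq_one_of_odd a b (k := 1) (hf x hx) (d x x.2))

theorem b3_three {G : Type*} [Group G] {p : ℕ} (hp : p.Prime) (h2 : p ≠ 2) {x y z : G} (hx : orderOf x = p)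
    (hy : orderOf y = p) (hz : orderOf z = p) (xy : Commute x y) (xz : Commute x z) (yz : Commute y z)
    (h : ∀ a ∈ zpowers x, ∀ b ∈ zpowers y, ∀ c ∈ zpowers z, a * (b * c) = 1 → a = 1 ∧ b = 1 ∧ c = 1) : B3 G := by
  have k : ∀ {u v : G}, Commute u v → ∀ (a : zpowers u) (b : zpowers v), Commute (a : G) b := by
    rintro u v e ⟨_, i, rfl⟩ ⟨_, j, rfl⟩; exact e.zpow_zpow i j
  have e : ∀ {u : G}, orderOf u = p → ∀ a : zpowers u, a ^ p = 1 := by
    rintro u hu ⟨_, i, rfl⟩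
    refine Subtype.ext ?_
    change (u ^ i) ^ p = 1
    rw [← zpow_natCast, ← zpow_mul, mul_comm, zpow_mul, zpow_natCast, ← hu, pow_orderOf_eq_one, one_zpow]
  refine b3_of_hom (X := zpowers x × zpowers y × zpowers z) hp h2 (fun a b => ?_) (fun a => ?_) ?_
    ((zpowers x).subtype.noncommCoprod ((zpowers y).subtype.noncommCoprod (zpowers z).subtype (k yz))
      fun a b => (k xy a b.1).mul_right (k xz a b.2)) fun a ha => ?_
  · exact Prod.ext (Subtype.ext (k (.refl x) _ _)) (Prod.ext (Subtype.ext (k (.refl y) _ _)) (Subtype.ext (k (.refl z) _ _)))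
  · exact Prod.ext (e hx _) (Prod.ext (e hy _) (e hz _))
  · rw [Nat.card_prod, Nat.card_prod, Nat.card_zpowers, Nat.card_zpowers, Nat.card_zpowers, hx, hy, hz]
    exact le_of_eq (by ring)
  · obtain ⟨h1, h3, h4⟩ := h _ a.1.2 _ a.2.1.2 _ a.2.2.2 ha
    exact Prod.ext (Subtype.ext h1) (Prod.ext (Subtype.ext h3) (Subtype.ext h4))

theorem eq_one_of_comm {G : Type*} [Group G] {x u a : G} (hx : x ^ 3 = 1) (hu : u ∈ zpowers x) (h : ¬ Commute a x)
    (c : Commute a u) : u = 1 := by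
  obtain ⟨i, rfl⟩ := hu
  have e : x ^ i = x ^ (i % 3) := zpow_eq_zpow_emod i (by exact_mod_cast hx)
  change Commute a (x ^ i) at c
  change x ^ i = 1
  rw [e] at c ⊢
  rcases (by omega : i % 3 = 0 ∨ i % 3 = 1 ∨ i % 3 = 2) with k | k | k <;> rw [k] at c ⊢
  · exact zpow_zero x
  · exact (h (by simpa using c)).elim
  · refine (h ?_).elim
    have := c.mul_right c
    rwa [← zpow_add, show (2 + 2 : ℤ) = 3 + 1 from rfl, zpow_add, zpow_one, show x ^ (3 : ℤ) = 1 by exact_mod_cast hx,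
      one_mul] at this

theorem b3_br {G : Type*} [Group G] {K : Subgroup G} {a b : Fin 3 → G} (h : ∀ i, QT.Br (a i) (b i))
    (c : ∀ i j, i ≠ j → Commute (a i) (a j) ∧ Commute (a i) (b j) ∧ Commute (b i) (b j))
    (m : ∀ i, (a i * b i) ^ 2 ∈ K) : B3 K := by
  haveI : Fact (Nat.Prime 3) := ⟨Nat.prime_three⟩
  have o : ∀ i, orderOf (⟨_, m i⟩ : K) = 3 := fun i =>
    orderOf_eq_prime (Subtype.ext (h i).cube) fun e => (h i).not_comm_sq (by
      rw [show (a i * b i) ^ 2 = 1 from congrArg Subtype.val e]; exact .one_right _)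
  have c1 : ∀ i j, i ≠ j → Commute (a i) ((a j * b j) ^ 2) := fun i j e =>
    ((c i j e).1.mul_right (c i j e).2.1).pow_right 2
  have c2 : ∀ i j, i ≠ j → Commute (⟨_, m i⟩ : K) ⟨_, m j⟩ := fun i j e => Subtype.ext
    ((((c i j e).1.mul_right (c i j e).2.1).mul_left ((c j i e.symm).2.1.symm.mul_right (c i j e).2.2)).pow_pow 2 2)
  have z : ∀ {i} {u : K}, u ∈ zpowers (⟨_, m i⟩ : K) → (u : G) ∈ zpowers ((a i * b i) ^ 2) := by
    rintro i _ ⟨k, rfl⟩; exact ⟨k, rfl⟩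
  have c3 : ∀ i j, i ≠ j → ∀ {u : K}, u ∈ zpowers (⟨_, m j⟩ : K) → Commute (a i) u := fun i j e u hu => by
    obtain ⟨k, hk⟩ := z hu
    exact hk ▸ (c1 i j e).zpow_right k
  refine b3_three Nat.prime_three (by decide) (o 0) (o 1) (o 2) (c2 0 1 (by decide)) (c2 0 2 (by decide))
    (c2 1 2 (by decide)) fun u hu v hv w hw e => ?_
  have e' : (u : G) * (v * w) = 1 := congrArg Subtype.val e
  have h1 : u = 1 := Subtype.ext (eq_one_of_comm (h 0).cube (z hu) (h 0).not_comm_sq (by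
    rw [eq_inv_of_mul_eq_one_left e']
    exact ((c3 0 1 (by decide) hv).mul_right (c3 0 2 (by decide) hw)).inv_right))
  rw [h1, one_mul] at e
  have e'' : (v : G) * w = 1 := congrArg Subtype.val e
  have h2 : v = 1 := Subtype.ext (eq_one_of_comm (h 1).cube (z hv) (h 1).not_comm_sq (by
    rw [eq_inv_of_mul_eq_one_left e'']
    exact (c3 1 2 (by decide) hw).inv_right))
  rw [h2, one_mul] at e
  exact ⟨h1, h2, e⟩

/-- three commuting braid pairs -/
def BP3 (G : Type*) [Group G] : Prop :=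
  ∃ a b : Fin 3 → G, (∀ i, QT.Br (a i) (b i)) ∧
    ∀ i j, i ≠ j → Commute (a i) (a j) ∧ Commute (a i) (b j) ∧ Commute (b i) (b j)

theorem BP3.b3 {G : Type*} [Group G] (h : BP3 G) : B3 G :=
  let ⟨_, _, h1, h2⟩ := h
  (b3_br (K := ⊤) h1 h2 fun _ => mem_top _).congr topEquiv

theorem BP3.quot {G : Type*} [Group G] (h : BP3 G) : B3 (G ⧸ center G) :=
  let ⟨a, b, h1, h2⟩ := h
  BP3.b3 ⟨fun i => QuotientGroup.mk' _ (a i), fun i => QuotientGroup.mk' _ (b i),
    fun i => (h1 i).map _ fun x hx => (QuotientGroup.eq_one_iff x).1 hx,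
    fun i j e => ⟨(h2 i j e).1.map _, (h2 i j e).2.1.map _, (h2 i j e).2.2.map _⟩⟩

section Sys
open Cfsg.Lib.Chev Cfsg.Lib.Chev.RootSys
variable {ι Φ : Type} [Fintype ι] [DecidableEq ι] [Fintype Φ] {R : RootSys ι Φ} {F : Type*} [Field F]
  {G : Type*} [Group G] {C : ChevSys R F G} (hF : C.Faithful) (hM : C.HMul)
include hF hM

theorem bp3_simple (s : Fin 3 → ι) (h : ∀ i j, i ≠ j → R.A (s i) (s j) = 0) : BP3 G :=
  ⟨_, _, fun i => QT.br_x hF hM (R.simple (s i)), fun i j k =>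
    have e : s i ≠ s j := fun e => by have := h i j k; rw [e, A_diag] at this; omega
    ⟨Twisted.commute_of_orth e (h i j k) (Twisted.x_mem_Lv _ _) (Twisted.x_mem_Lv _ _),
      Twisted.commute_of_orth e (h i j k) (Twisted.x_mem_Lv _ _) (Twisted.x_neg_mem_Lv _ _),
      Twisted.commute_of_orth e (h i j k) (Twisted.x_neg_mem_Lv _ _) (Twisted.x_neg_mem_Lv _ _)⟩⟩

theorem bp3_ln (s : Fin 3 → Φ) (h : ∀ i j, i ≠ j → R.pair (s i) (s j) = 0) (h' : ∀ i k, R.ln k ≠ 2 * R.ln (s i)) :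
    BP3 G :=
  ⟨_, _, fun i => QT.br_x hF hM (s i), fun i j e =>
    ⟨ChevSys.commute_of_orth (h i j e) (fun k _ _ => h' i k) _ _,
      ChevSys.commute_of_orth (by simp [h i j e]) (fun k _ _ => h' i k) _ _,
      ChevSys.commute_of_orth (by simp [h i j e]) (fun k _ _ => by simpa [R.ln_neg] using h' i k) _ _⟩⟩

end Sys

theorem b3_diag {G F : Type*} [Group G] [Field F] {n r : ℕ} (hn : 4 ≤ n) (f : G →* Matrix (Fin n) (Fin n) F)
    (hf : Function.Injective f) (hZ : ∀ g ∈ center G, ∃ c : F, f g = c • 1) {a : F}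
    (ha : IsPrimitiveRoot a r) (hr : r.Prime) (h2 : r ≠ 2)
    (hD : ∀ d : Fin n → F, (∀ i, d i ^ r = 1) → ∏ i, d i = 1 → ∃ g, f g = Matrix.diagonal d) :
    B3 (G ⧸ center G) := by
  obtain ⟨n, rfl⟩ := Nat.exists_eq_add_of_le' hn
  haveI : NeZero r := ⟨hr.ne_zero⟩
  let D : rootsOfUnity r F × rootsOfUnity r F × rootsOfUnity r F → Fin (n + 4) → rootsOfUnity r F := fun x =>
    Matrix.vecCons x.1 (Matrix.vecCons x.2.1 (Matrix.vecCons x.2.2 (Matrix.vecCons (x.1 * (x.2.1 * x.2.2))⁻¹ 1)))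
  have e : ∀ u : rootsOfUnity r F, u ^ r = 1 := fun u => Subtype.ext u.2
  let φ : rootsOfUnity r F →* F := (Units.coeHom F).comp (Subgroup.subtype _)
  have hφ : Function.Injective φ := Units.val_injective.comp Subtype.val_injective
  have D1 : ∀ x, ∏ i, D x i = 1 := fun x => by
    simp only [D, Fin.prod_univ_succ, Matrix.cons_val_zero, Matrix.cons_val_succ, Pi.one_apply, Finset.prod_const_one]
    group
  have D2 : ∀ x y, D (x * y) = D x * D y := fun x y => by
    funext i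
    refine Fin.cases rfl (Fin.cases rfl (Fin.cases rfl (Fin.cases ?_ fun i => ?_))) i
    · change (x.1 * y.1 * (x.2.1 * y.2.1 * (x.2.2 * y.2.2)))⁻¹ = (x.1 * (x.2.1 * x.2.2))⁻¹ * (y.1 * (y.2.1 * y.2.2))⁻¹
      rw [← mul_inv, mul_mul_mul_comm x.2.1, mul_mul_mul_comm x.1]
    · exact (mul_one 1).symm
  choose g hg using fun x => hD (fun i => φ (D x i)) (fun i => by rw [← map_pow, e, map_one])
    (by rw [← map_prod, D1, map_one])
  refine b3_of_hom hr h2 mul_comm (fun x => Prod.ext (e _) (Prod.ext (e _) (e _))) ?_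
    ((QuotientGroup.mk' (center G)).comp (MonoidHom.mk' g fun x y => hf ?_)) fun x hx => ?_
  · rw [Nat.card_prod, Nat.card_prod, ha.card_rootsOfUnity]
    exact le_of_eq (by ring)
  · rw [map_mul, hg, hg, hg, Matrix.diagonal_mul_diagonal, D2]
    exact congrArg _ (funext fun i => map_mul φ _ _)
  · obtain ⟨c, hc⟩ := hZ _ ((QuotientGroup.eq_one_iff _).1 hx)
    change f (g x) = _ at hc
    rw [hg] at hc
    have k : ∀ i, φ (D x i) = c := fun i => by simpa using congrFun (congrFun hc i) i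
    have k' : ∀ i, D x i = x.1 := fun i => hφ ((k i).trans (k 0).symm)
    have k1 : x.2.1 = x.1 := k' (Fin.succ 0)
    have k2 : x.2.2 = x.1 := k' (Fin.succ (Fin.succ 0))
    have k3 : (x.1 * (x.2.1 * x.2.2))⁻¹ = x.1 := k' (Fin.succ (Fin.succ (Fin.succ 0)))
    have k4 : x.1 = 1 := QT.eq_one_of_odd hr h2 (k := 2) (by
      rw [k1, k2, inv_eq_iff_mul_eq_one] at k3
      rw [← k3]; simp only [pow_succ, pow_zero, one_mul, mul_assoc, Nat.reduceMul]) (e _)
    exact Prod.ext k4 (Prod.ext (k1.trans k4) (k2.trans k4))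

section Orth
open Cfsg.Lib.Orth QuadraticMap Module
variable {F V : Type*} [Field F] [CharP F 2] [AddCommGroup V] [Module F V] {Q : QuadraticForm F V}

theorem b3_omega (e f : Fin 3 → V) (w : V) (qe : ∀ i, Q (e i) = 0) (qf : ∀ i, Q (f i) = 0) (qw : Q w = 1)
    (ef : ∀ i j, polar Q (e i) (f j) = if i = j then 1 else 0) (ee : ∀ i j, polar Q (e i) (e j) = 0)
    (ff : ∀ i j, polar Q (f i) (f j) = 0) (ew : ∀ i, polar Q (e i) w = 0) (fw : ∀ i, polar Q (f i) w = 0) :
    B3 (commutator (O Q)) := by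
  have fe : ∀ i j, polar Q (f i) (e j) = if j = i then 1 else 0 := fun i j => by rw [polar_comm, ef]
  have we : ∀ i, polar Q w (e i) = 0 := fun i => by rw [polar_comm, ew]
  have wf : ∀ i, polar Q w (f i) = 0 := fun i => by rw [polar_comm, fw]
  have ww : polar Q w w = 0 := by rw [polar_self', CharTwo.two_eq_zero, zero_mul]
  have A : ∀ x y, Q (x + y) = Q x + Q y + polar Q x y := fun x y => by simp [polar]
  have h : ∀ i, QT.Br (refl Q (e i + f i)) (refl Q (f i + w)) := fun i => by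
    refine QT.br_refl (w := e i + f i) one_ne_zero ?_ ?_ ?_ ?_ ?_ <;>
      simp [A, polar_add_left, polar_add_right, CharTwo.neg_eq, CharTwo.two_eq_zero, *]
  refine b3_br h (fun i j k => ⟨?_, ?_, ?_⟩) fun i => (h i).mem_comm (refl_mul_self _) <;>
    refine refl_comm_of_perp ?_ <;> simp [polar_add_left, polar_add_right, k.symm, *]

omit [CharP F 2] in
theorem b3_pcom [Finite F] [FiniteDimensional F V] (hQ : ND Q) (h5 : 5 ≤ finrank F V)
    (h : B3 (commutator (O Q))) : B3 (PCom (O Q)) := by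
  refine h.of_two (QuotientGroup.mk' _) fun x hx => ?_
  rcases (mem_center_commutator_iff hQ (not_exc_of_five_le h5) (by omega)).1 ((QuotientGroup.eq_one_iff x).1 hx) with k | k
  · rw [show x = 1 from Subtype.ext k, one_pow]
  · refine Subtype.ext ?_
    rw [Subgroup.coe_pow, k, pow_two]
    exact O.ext fun v => by simp

end Orth

variable {F : Type} [Field F] [Fintype F] [CharP F 2]

theorem b3_PSL {n : ℕ} (h : 6 ≤ n ∨ (4 ≤ n ∧ Fintype.card F ≠ 2)) : B3 (Matrix.ProjectiveSpecialLinearGroup (Fin n) F) := by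
  rcases h with h | ⟨h, h'⟩
  · obtain ⟨n, rfl⟩ := Nat.exists_eq_add_of_le' h
    refine (bp3_simple (Chev.realSL F (n + 5)).faithful (Chev.realSL F _).hMul
      ![⟨0, by omega⟩, ⟨2, by omega⟩, ⟨4, by omega⟩] fun i j e => ?_).quot
    fin_cases i <;> fin_cases j <;> simp [Chev.A_A] at e ⊢
  · obtain ⟨⟨e, he⟩, -, hq⟩ := FiniteField.card F 2
    have pq : 2 ∣ Fintype.card F := hq ▸ dvd_pow_self 2 (by simp; omega)
    have h1 := Fintype.one_lt_card (α := F)
    obtain ⟨r, hr, hd⟩ := Nat.exists_prime_and_dvd (n := Fintype.card F - 1) (by omega)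
    haveI := Fact.mk hr
    classical
    obtain ⟨a, ha⟩ := exists_prime_orderOf_dvd_card (G := Fˣ) r (by rwa [Fintype.card_units])
    exact b3_diag h (QT.slM _ F) Subtype.val_injective QT.slM_center
      (IsPrimitiveRoot.coe_units_iff.2 (ha ▸ IsPrimitiveRoot.orderOf a)) hr (by rintro rfl; omega)
      fun d _ h1 => ⟨⟨Matrix.diagonal d, by rw [Matrix.det_diagonal, h1]⟩, rfl⟩

theorem b3_PSp {m : ℕ} (h : 3 ≤ m) : B3 (PSp m F) := by
  refine (bp3_ln (Chev.realSp F m).faithful (Chev.realSp F _).hMul (fun i => Chev.Rt.long ⟨i, by omega⟩)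
    (fun i j e => ?_) fun i k => ?_).quot
  · have : i.1 ≠ j.1 := fun k => e (Fin.ext k)
    rw [Chev.pair_C, Chev.Rt.P_long]
    simp only [Chev.Rt.long, Chev.dl_def]
    rw [if_neg (by omega), if_neg (by omega)]; rfl
  · have h : ∀ r, (Chev.rootC m).ln r = if r.1.1 = r.1.2 then 2 else 1 := fun _ => rfl
    rw [h, h, if_pos (show (Chev.Rt.long _).1.1 = (Chev.Rt.long _).1.2 from rfl)]
    split_ifs <;> omega

theorem b3_PSU {n q : ℕ} (hF : Fintype.card F = q ^ 2) (h : 4 ≤ n) : B3 (PSU n F q) := by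
  have hf : Function.Injective ((QT.slM (Fin n) F).comp (Cfsg.SU n F q).subtype) :=
    Subtype.val_injective.comp Subtype.val_injective
  have pq : 2 ∣ q := by
    obtain ⟨⟨e, he⟩, -, hq⟩ := FiniteField.card F 2
    exact Nat.prime_two.dvd_of_dvd_pow (hF ▸ hq ▸ dvd_pow_self 2 (by simp; omega))
  obtain ⟨σ, hσ⟩ := Unitary.exists_isBar hF
  obtain ⟨r, hr, hd⟩ := Nat.exists_prime_and_dvd (n := q + 1) (by have := hσ.two_le; omega)
  obtain ⟨ζ, hζ⟩ := hσ.exists_primitive_norm_one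
  obtain ⟨s, hs⟩ := hd
  refine b3_diag h _ hf (fun g hg => (Unitary.mem_center_SU hF (by omega)).1 hg)
    (hζ.pow (by omega) (hs.trans (mul_comm _ _))) hr (by rintro rfl; omega) fun d h1 h3 =>
    ⟨⟨⟨Matrix.diagonal d, by rw [Matrix.det_diagonal, h3]⟩, hσ.mem_SU_iff.2 ?_⟩, rfl⟩
  change ((Matrix.diagonal d).map σ).transpose * Matrix.diagonal d = 1
  rw [Matrix.diagonal_map (map_zero σ), Matrix.diagonal_transpose, Matrix.diagonal_mul_diagonal, ← Matrix.diagonal_one]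
  congr 1; funext i
  rw [mul_comm, hσ.norm_eq, hs, pow_mul, h1, one_pow]

theorem b3_plus {m : ℕ} (h : 4 ≤ m) : B3 (POmega F (quadFormPlus m F)) := by
  obtain ⟨k, rfl⟩ := Nat.exists_eq_add_of_le' h
  refine (b3_pcom (Orth.nd_qPlus (k + 4)) (by simp; omega)
    (b3_omega (fun i => Pi.single (.inl ⟨i, by omega⟩) 1) (fun i => Pi.single (.inr ⟨i, by omega⟩) 1)
      (Pi.single (.inl ⟨3, by omega⟩) 1 + Pi.single (.inr ⟨3, by omega⟩) 1)
      ?_ ?_ ?_ ?_ ?_ ?_ ?_ ?_)).congr (Orth.pomegaEquiv (Orth.qPlus (k + 4) F)).symm <;>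
    (try simp only [Fin.forall_fin_succ]) <;>
    simp [Orth.qPlus_apply, Orth.polar_qPlus, Pi.single_apply]

theorem b3_minus {m : ℕ} (h : 4 ≤ m) {a b : F}
    (hab : ∀ z₁ z₂ : F, z₁ ^ 2 + a * z₁ * z₂ + b * z₂ ^ 2 = 0 → z₁ = 0 ∧ z₂ = 0) :
    B3 (POmega F (quadFormMinus (m - 1) F a b)) := by
  obtain ⟨k, rfl⟩ := Nat.exists_eq_add_of_le' h
  change B3 (POmega F (quadFormMinus (k + 3) F a b))
  refine (b3_pcom (Orth.nd_qMinus (k + 3) hab) (by simp; omega)
    (b3_omega (fun i => Pi.single (.inl (.inl ⟨i, by omega⟩)) 1) (fun i => Pi.single (.inl (.inr ⟨i, by omega⟩)) 1)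
      (Pi.single (.inr 0) 1)
      ?_ ?_ ?_ ?_ ?_ ?_ ?_ ?_)).congr (Orth.pomegaEquiv (Orth.qMinus (k + 3) F a b)).symm <;>
    (try simp only [Fin.forall_fin_succ]) <;>
    simp [Orth.qMinus_apply, Orth.polar_qMinus, Pi.single_apply]

end Cfsg.Lib.QS
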