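import Cfsg.Agent.Lib.QS.SqA

/-!
# QS/SqB (S1849): exceptional groups with 3-rank at least 3.
Use `b3_br` with three mutually strongly orthogonal roots (`QT.br_x`, proofs of `QT.bp_simple`, `bp_ln`, `bp_F4`, ...; for `E₆, E₇, E₈` three
pairwise unjoined simple roots; for `F₄` three orthogonal long roots); for `²E₆` the word method of `QT.bad_2E6` (`zw`, `zw_step`, `zw_comm`)
with a third conjugate (three orthogonal long roots of the relative `F₄` system, i.e. roots of `E₆` fixed by the graph symmetry).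
-/

set_option autoImplicit false

namespace Cfsg.Lib.QS

open Subgroup Cfsg.Lib.BG Cfsg.Lib.Comp
open scoped Cfsg.Lib.Transfer commutatorElement MatrixGroups

variable {F : Type} [Field F] [Fintype F] [CharP F 2]

theorem b3_F4 : B3 (Lie.chevF4.group F) := by
  exact (bp3_ln Twisted.faithful_F4 Twisted.adjoint_F4.hMul ![25, 30, 41] (by decide +kernel) (by decide +kernel)).b3

theorem b3_E6 : B3 (Lie.chevE6.group F) := by
  exact (bp3_simple Twisted.faithful_E6 Twisted.adjoint_E6.hMul ![0, 1, 5] (by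
    change ∀ i j : Fin 3, i ≠ j → Chev.AN Lie.chevE6 ((![0, 1, 5] : Fin 3 → Fin 6) i) ((![0, 1, 5] : Fin 3 → Fin 6) j) = 0
    decide +kernel)).b3

theorem b3_E7 : B3 (Lie.chevE7.group F) := by
  exact (bp3_simple (Twisted.sysG_faithful Chev.checkedE7 F) (Twisted.sysG_adjoint _ _).hMul (![0, 1, 4] : Fin 3 → Fin 7) (by
    change ∀ i j : Fin 3, i ≠ j → Chev.AN Lie.chevE7 ((![0, 1, 4] : Fin 3 → Fin 7) i) ((![0, 1, 4] : Fin 3 → Fin 7) j) = 0
    decide +kernel)).b3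

theorem b3_E8 : B3 (Lie.chevE8.group F) := by
  exact (bp3_simple (Twisted.sysG_faithful Chev.checkedE8 F) (Twisted.sysG_adjoint _ _).hMul (![0, 1, 4] : Fin 3 → Fin 8) (by
    change ∀ i j : Fin 3, i ≠ j → Chev.AN Lie.chevE8 ((![0, 1, 4] : Fin 3 → Fin 8) i) ((![0, 1, 4] : Fin 3 → Fin 8) j) = 0
    decide +kernel)).b3

theorem b3_2E6 {q : ℕ} (h : Fintype.card F = q ^ 2) : B3 (Lie.twistedE6 F q) := by
  have h2 : ((2 : ℕ) : F) = 0 := CharP.cast_eq_zero F 2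
  have B := fun r => QT.br_x (Twisted.faithful_E6 (K := F)) Twisted.adjoint_E6.hMul (Twisted.RE6.simple r)
  have k1 : ∀ {a b}, a ∈ Twisted.Lv (Twisted.CE6 F) 2 → b ∈ Twisted.Lv (Twisted.CE6 F) 4 → Commute a b :=
    Twisted.commute_of_orth (by decide) Twisted.A24_E6
  have p := fun i => Twisted.x_mem_Lv (C := Twisted.CE6 F) i 1
  have m := fun i => Twisted.x_neg_mem_Lv (C := Twisted.CE6 F) i (-1)
  have b1 := (B 2).mul (B 4) (k1 (p _) (p _)) (k1 (p _) (m _)) (k1 (m _) (p _)) (k1 (m _) (m _))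
  have b0 := B 1
  simp only [Twisted.xp_E6, Twisted.xm_E6, CharTwo.neg_eq] at b0 b1
  change QT.Br (Twisted.xN Chev.checkedE6 46 1) (Twisted.xN Chev.checkedE6 25 1) at b0
  change QT.Br (Twisted.xN Chev.checkedE6 42 1 * Twisted.xN Chev.checkedE6 37 1)
    (Twisted.xN Chev.checkedE6 29 1 * Twisted.xN Chev.checkedE6 34 1) at b1
  have s : ∀ r ∈ [Lie.e6p2, Lie.e6m2, Lie.e6p4, Lie.e6m4], QT.zw F Chev.checkedE6 [(r, 1)] ∈ Twisted.KE6 F q :=
    fun r hr => by simpa [QT.zw] using Twisted.single_mem_KE6 (q := q) hr (one_pow q : (1 : F) ^ q = 1)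
  have t : ∀ r r', (r, r') ∈ [(Lie.e6p1, Lie.e6p6), (Lie.e6m1, Lie.e6m6), (Lie.e6p3, Lie.e6p5), (Lie.e6m3, Lie.e6m5)] →
      QT.zw F Chev.checkedE6 [(r, 1), (r', 1)] ∈ Twisted.KE6 F q :=
    fun r r' hr => by simpa [QT.zw] using Twisted.pair_mem_KE6 (q := q) hr (1 : F)
  have a0 : QT.zw F Chev.checkedE6 [(46, 1)] ∈ Twisted.KE6 F q ∧ QT.zw F Chev.checkedE6 [(25, 1)] ∈ Twisted.KE6 F q ∧
      QT.Br (QT.zw F Chev.checkedE6 [(46, 1)]) (QT.zw F Chev.checkedE6 [(25, 1)]) :=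
    ⟨s 46 (by decide), s 25 (by decide), by simpa [QT.zw] using b0⟩
  have a1 : QT.zw F Chev.checkedE6 [(42, 1), (37, 1)] ∈ Twisted.KE6 F q ∧
      QT.zw F Chev.checkedE6 [(29, 1), (34, 1)] ∈ Twisted.KE6 F q ∧
      QT.Br (QT.zw F Chev.checkedE6 [(42, 1), (37, 1)]) (QT.zw F Chev.checkedE6 [(29, 1), (34, 1)]) :=
    ⟨t 42 37 (by decide), t 29 34 (by decide), by simpa [QT.zw] using b1⟩
  have n4 : QT.zw F Chev.checkedE6 ([(39, 1)] ++ [(32, 1)] ++ [(39, 1)]) ∈ Twisted.KE6 F q := by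
    rw [QT.zw_append, QT.zw_append]
    exact mul_mem (mul_mem (s 39 (by decide)) (s 32 (by decide))) (s 39 (by decide))
  have n3 : QT.zw F Chev.checkedE6 ([(42, 1), (37, 1)] ++ [(29, 1), (34, 1)] ++ [(42, 1), (37, 1)]) ∈ Twisted.KE6 F q := by
    rw [QT.zw_append, QT.zw_append]
    exact mul_mem (mul_mem a1.1 a1.2.1) a1.1
  have a2 := QT.zw_step Chev.checkedE6 h2 (c := [(47, 1)]) (d := [(24, 1)]) n4 (by decide +kernel) a0
  have a3 := QT.zw_step Chev.checkedE6 h2 (c := [(51, 1)]) (d := [(20, 1)]) n3 (by decide +kernel) a2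
  have a4 := QT.zw_step Chev.checkedE6 h2 (c := [(53, 1)]) (d := [(18, 1)]) n4 (by decide +kernel) a3
  have c01 := QT.zw_comm Chev.checkedE6 h2 (a := [(46, 1)]) (b := [(25, 1)]) (c := [(42, 1), (37, 1)])
    (d := [(29, 1), (34, 1)]) (by decide +kernel)
  have c02 := QT.zw_comm Chev.checkedE6 h2 (a := [(46, 1)]) (b := [(25, 1)]) (c := [(53, 1)]) (d := [(18, 1)])
    (by decide +kernel)
  have c12 := QT.zw_comm Chev.checkedE6 h2 (a := [(42, 1), (37, 1)]) (b := [(29, 1), (34, 1)]) (c := [(53, 1)])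
    (d := [(18, 1)]) (by decide +kernel)
  refine (b3_br (K := Twisted.KE6 F q) (a := ![_, _, _]) (b := ![_, _, _])
    (Fin.forall_fin_succ.2 ⟨a0.2.2, Fin.forall_fin_two.2 ⟨a1.2.2, a4.2.2⟩⟩) (fun i j e => ?_)
    (Fin.forall_fin_succ.2 ⟨pow_mem (mul_mem a0.1 a0.2.1) 2, Fin.forall_fin_two.2
      ⟨pow_mem (mul_mem a1.1 a1.2.1) 2, pow_mem (mul_mem a4.1 a4.2.1) 2⟩⟩)).congr
    (Twisted.equivOfMap (subtype_injective _) Twisted.map_KE6).symm
  fin_cases i <;> fin_cases j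
  exacts [(e rfl).elim, ⟨c01.1, c01.2.1, c01.2.2.2⟩, ⟨c02.1, c02.2.1, c02.2.2.2⟩,
    ⟨c01.1.symm, c01.2.2.1.symm, c01.2.2.2.symm⟩, (e rfl).elim, ⟨c12.1, c12.2.1, c12.2.2.2⟩,
    ⟨c02.1.symm, c02.2.2.1.symm, c02.2.2.2.symm⟩, ⟨c12.1.symm, c12.2.2.1.symm, c12.2.2.2.symm⟩, (e rfl).elim]

end Cfsg.Lib.QS
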